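import Mathlib

/-! The order of a permutation group in which any two points are distinguished by many points. -/

set_option autoImplicit false
set_option linter.unusedVariables false
set_option linter.unusedSectionVars false

namespace Cfsg.Agent.H5.Ch

open MulAction Finset

variable {X Ω : Type} [Group X] [Finite X] [MulAction X Ω] [Fintype Ω]

open Classical in
/-- the other points of an orbit -/
noncomputable def ro (H : Subgroup X) (u : Ω) : Finset Ω := univ.filter fun v => v ≠ u ∧ ∃ h ∈ H, h • u = v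

variable (Ω) in
/-- the number of pairs of distinct points in one orbit -/
noncomputable def np (H : Subgroup X) : ℕ := ∑ u : Ω, #(ro H u)

/-- a point stabiliser -/
def st (H : Subgroup X) (w : Ω) : Subgroup X := (stabilizer H w).map H.subtype

theorem card_st (H : Subgroup X) (w : Ω) : Nat.card H = Nat.card (st H w) * (#(ro H w) + 1) := by
  classical
  rw [st, Subgroup.card_map_of_injective H.subtype_injective, ← (stabilizer H w).card_mul_index, index_stabilizer,
    ← card_insert_of_notMem (a := w) (by simp [ro]), ← Set.ncard_coe_finset]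
  congr 2
  ext v
  simp only [ro, mem_orbit_iff, coe_insert, coe_filter, mem_univ, true_and, Set.mem_insert_iff, Set.mem_setOf_eq]
  constructor
  · rintro ⟨h, rfl⟩
    by_cases e : h • w = w
    · exact .inl e
    · exact .inr ⟨e, h.1, h.2, rfl⟩
  · rintro (rfl | ⟨-, h, hh, rfl⟩)
    · exact ⟨1, one_smul _ _⟩
    · exact ⟨⟨h, hh⟩, rfl⟩

variable {d : ℕ} (hd : ∀ u v : Ω, u ≠ v → d ≤ {z : Ω | ∀ x : X, x • z = z → x • u ≠ v}.ncard)
include hd

theorem sum_np (H : Subgroup X) : ∑ w : Ω, np Ω (st H w) ≤ (Fintype.card Ω - d) * np Ω H := by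
  classical
  simp only [np]
  rw [sum_comm, mul_sum]
  refine sum_le_sum fun u _ => ?_
  have : ∀ w : Ω, #(ro (st H w) u) = ∑ v ∈ ro H u, if v ∈ ro (st H w) u then 1 else 0 := fun w => by
    rw [← card_filter, filter_mem_eq_inter, inter_eq_right.2]
    intro v hv
    simp only [ro, mem_filter, mem_univ, true_and] at hv ⊢
    obtain ⟨e, _, ⟨h, -, rfl⟩, e'⟩ := hv
    exact ⟨e, h.1, h.2, e'⟩
  simp only [this]
  rw [sum_comm, mul_comm, ← smul_eq_mul]
  refine sum_le_card_nsmul _ _ _ fun v hv => ?_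
  have h1 := hd u v (Ne.symm (mem_filter.1 hv).2.1)
  rw [← card_filter]
  have h2 := card_filter_add_card_filter_not (s := (univ : Finset Ω)) fun w => v ∈ ro (st H w) u
  rw [card_univ] at h2
  refine Nat.le_sub_of_add_le (h2 ▸ Nat.add_le_add_left (h1.trans ?_) _)
  rw [← Set.ncard_coe_finset]
  refine Set.ncard_le_ncard fun z hz => ?_
  simp only [ro, coe_filter, mem_filter, mem_univ, true_and, Set.mem_setOf_eq]
  rintro ⟨-, _, ⟨h, hh, rfl⟩, e⟩
  exact hz h.1 hh e

/-- one averaging step -/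
theorem line_step [Nonempty Ω] (dn : d ≤ Fintype.card Ω) {A B y : ℝ} (hB : 0 ≤ B) (hy : 0 < y) (H : Subgroup X)
    (h : ∀ w : Ω, Real.log (Nat.card (st H w)) ≤ A + B * np Ω (st H w)) :
    Real.log (Nat.card H) ≤ Real.log y - 1 + 1 / y + A +
      (1 / y + B * (Fintype.card Ω - d)) / Fintype.card Ω * np Ω H := by
  have n0 : (0 : ℝ) < Fintype.card Ω := by exact_mod_cast Fintype.card_pos
  have h1 : ∀ w : Ω, Real.log (Nat.card H) ≤ Real.log y - 1 + 1 / y + A + (#(ro H w) / y + B * np Ω (st H w)) :=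
    fun w => by
      have c0 : (0 : ℝ) < Nat.card (st H w) := by exact_mod_cast Nat.card_pos
      have := Real.log_le_sub_one_of_pos (x := (#(ro H w) + 1) / y) (by positivity)
      rw [Real.log_div (by positivity) hy.ne', add_div] at this
      rw [card_st H w, Nat.cast_mul, Real.log_mul c0.ne' (by positivity)]
      have := h w
      push_cast
      linarith
  have h2 := sum_le_sum fun w (_ : w ∈ univ) => h1 w
  have h3 : ((∑ w : Ω, np Ω (st H w) : ℕ) : ℝ) ≤ (Fintype.card Ω - d) * np Ω H := by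
    exact_mod_cast sum_np hd H
  rw [sum_add_distrib, sum_add_distrib (f := fun w => (#(ro H w) : ℝ) / y), ← sum_div, ← mul_sum] at h2
  simp only [sum_const, card_univ, nsmul_eq_mul] at h2
  have e : ∑ w : Ω, (#(ro H w) : ℝ) = np Ω H := by simp [np]
  rw [e] at h2
  push_cast at h3
  have := mul_le_mul_of_nonneg_left h3 hB
  refine le_of_mul_le_mul_left (h2.trans ?_) n0
  field_simp
  nlinarith

theorem line_zero [Nonempty Ω] [FaithfulSMul X Ω] (d0 : 0 < d) (dn : d ≤ Fintype.card Ω) (H : Subgroup X) :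
    Real.log (Nat.card H) ≤ np Ω H / d := by
  have n0 : (0 : ℝ) < Fintype.card Ω := by exact_mod_cast Fintype.card_pos
  have d1 : (0 : ℝ) < d := by exact_mod_cast d0
  obtain ⟨K, hK⟩ := Finite.exists_max fun K : Subgroup X => Real.log (Nat.card K) / np Ω K
  set M := Real.log (Nat.card K) / np Ω K with hM
  have M0 : 0 ≤ M := div_nonneg (Real.log_natCast_nonneg _) (Nat.cast_nonneg _)
  have all : ∀ L : Subgroup X, Real.log (Nat.card L) ≤ M * np Ω L := fun L => by
    rcases (np Ω L).eq_zero_or_pos with e | e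
    · have : L = ⊥ := (Subgroup.eq_bot_iff_forall L).2 fun g hg => eq_of_smul_eq_smul (α := Ω) fun u => by
        have := card_eq_zero.1 (sum_eq_zero_iff.1 e u (mem_univ _))
        by_contra c
        simpa [this] using show g • u ∈ ro L u by simpa [ro] using ⟨by simpa using c, g, hg, rfl⟩
      rw [e]; simp [this]
    · exact (div_le_iff₀ (by exact_mod_cast e)).1 (hK L)
  have : M ≤ 1 / d := by
    rcases (np Ω K).eq_zero_or_pos with e | e
    · rw [hM, e]; simp
    have e' : (0 : ℝ) < np Ω K := by exact_mod_cast e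
    have := line_step hd dn (A := 0) M0 one_pos K fun w => by simpa using all _
    rw [show Real.log (Nat.card K) = M * np Ω K by rw [hM]; field_simp] at this
    simp only [Real.log_one, div_one] at this
    have : M ≤ (1 + M * (Fintype.card Ω - d)) / Fintype.card Ω := le_of_mul_le_mul_right (by linarith) e'
    rw [le_div_iff₀ n0] at this
    rw [le_div_iff₀ d1]
    linarith
  refine (all H).trans ?_
  rw [div_eq_inv_mul, ← one_div]
  gcongr

theorem line [Nonempty Ω] [FaithfulSMul X Ω] (d0 : 0 < d) (dn : d ≤ Fintype.card Ω) (i : ℕ) :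
    ∀ z : ℝ, 0 ≤ z → ∃ B, 0 ≤ B ∧ ∀ H : Subgroup X, Real.log (Nat.card H) ≤
      ∑ j ∈ range i, Real.log (1 + ((Fintype.card Ω - d) / Fintype.card Ω) ^ j * z) +
        ((Fintype.card Ω - d) / Fintype.card Ω) ^ i * z * Fintype.card Ω / d + B * (np Ω H - Fintype.card Ω * z) := by
  have n0 : (0 : ℝ) < Fintype.card Ω := by exact_mod_cast Fintype.card_pos
  have d1 : (0 : ℝ) < d := by exact_mod_cast d0
  have d2 : (0 : ℝ) ≤ Fintype.card Ω - d := sub_nonneg.2 (by exact_mod_cast dn)
  induction i with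
  | zero =>
    refine fun z hz => ⟨1 / d, by positivity, fun H => (line_zero hd d0 dn H).trans_eq ?_⟩
    simp only [range_zero, sum_empty, pow_zero]
    field_simp
    ring
  | succ i ih =>
    intro z hz
    obtain ⟨B, hB, h⟩ := ih ((Fintype.card Ω - d) / Fintype.card Ω * z) (by positivity)
    refine ⟨(1 / (1 + z) + B * (Fintype.card Ω - d)) / Fintype.card Ω, by positivity, fun H => ?_⟩
    refine (line_step hd dn hB (show 0 < 1 + z by positivity) H fun w => (h _).trans_eq (by
      rw [mul_sub, ← add_sub_assoc, add_sub_right_comm])).trans_eq ?_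
    rw [sum_range_succ']
    simp only [pow_succ, mul_assoc, pow_zero, one_mul]
    field_simp
    ring

omit [Fintype Ω] hd in
theorem sharp [Finite Ω] [FaithfulSMul X Ω] (d : ℕ) (d0 : 0 < d) (dn : d ≤ Nat.card Ω)
    (hd : ∀ u v : Ω, u ≠ v → d ≤ {z : Ω | ∀ x : X, x • z = z → x • u ≠ v}.ncard) (i c : ℕ)
    (hc : 3 * ((Nat.card Ω - d) ^ i * (Nat.card Ω - 1) * Nat.card Ω) ≤ 2 * c * d * Nat.card Ω ^ i) :
    Nat.card X * ∏ j ∈ range i, Nat.card Ω ^ j ≤
      2 ^ c * ∏ j ∈ range i, (Nat.card Ω ^ j + (Nat.card Ω - d) ^ j * (Nat.card Ω - 1)) := by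
  classical
  have := Fintype.ofFinite Ω
  rw [Nat.card_eq_fintype_card (α := Ω)] at *
  have n1 : 1 ≤ Fintype.card Ω := by omega
  have : Nonempty Ω := Fintype.card_pos_iff.1 n1
  have n2 : (1 : ℝ) ≤ Fintype.card Ω := by exact_mod_cast n1
  have d1 : (0 : ℝ) < d := by exact_mod_cast d0
  have d2 : (0 : ℝ) ≤ Fintype.card Ω - d := sub_nonneg.2 (by exact_mod_cast dn)
  obtain ⟨B, hB, h⟩ := line hd d0 dn i (Fintype.card Ω - 1) (by linarith)
  have h1 : (np Ω (⊤ : Subgroup X) : ℝ) ≤ Fintype.card Ω * (Fintype.card Ω - 1) := by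
    have : np Ω (⊤ : Subgroup X) ≤ Fintype.card Ω * (Fintype.card Ω - 1) := by
      refine (sum_le_card_nsmul _ _ (Fintype.card Ω - 1) fun u _ => ?_).trans_eq (by simp)
      rw [← card_univ, ← card_erase_of_mem (mem_univ u)]
      exact card_le_card fun v hv => mem_erase.2 ⟨(mem_filter.1 hv).2.1, mem_univ _⟩
    exact_mod_cast this
  have h2 := h ⊤
  rw [Subgroup.card_top] at h2
  have h3 : ((Fintype.card Ω - d) / Fintype.card Ω : ℝ) ^ i * (Fintype.card Ω - 1) * Fintype.card Ω / d ≤
      c * Real.log 2 := by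
    have hc' : (3 : ℝ) * ((Fintype.card Ω - d) ^ i * (Fintype.card Ω - 1) * Fintype.card Ω) ≤
        2 * c * d * Fintype.card Ω ^ i := by exact_mod_cast hc
    have := Real.log_two_gt_d9
    refine le_trans ?_ (mul_le_mul_of_nonneg_left (show 2 / 3 ≤ Real.log 2 by linarith) (Nat.cast_nonneg c))
    rw [div_pow]
    field_simp
    linarith
  have pos : ∀ j, (0 : ℝ) < 1 + ((Fintype.card Ω - d) / Fintype.card Ω) ^ j * (Fintype.card Ω - 1) := fun j => by
    have : (0 : ℝ) ≤ Fintype.card Ω - 1 := by linarith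
    positivity
  have h4 : (Nat.card X : ℝ) ≤ 2 ^ c * ∏ j ∈ range i,
      (1 + ((Fintype.card Ω - d) / Fintype.card Ω : ℝ) ^ j * (Fintype.card Ω - 1)) := by
    rw [← Real.log_le_log_iff (by exact_mod_cast Nat.card_pos) (mul_pos (by positivity) (prod_pos fun j _ => pos j)),
      Real.log_mul (by positivity) (prod_pos fun j _ => pos j).ne', Real.log_prod fun j _ => (pos j).ne', Real.log_pow]
    nlinarith [mul_nonneg hB (sub_nonneg.2 h1)]
  rw [← Nat.cast_le (α := ℝ)]
  push_cast [dn, n1]
  refine (mul_le_mul_of_nonneg_right h4 (by positivity)).trans_eq ?_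
  rw [mul_assoc, ← prod_mul_distrib]
  congr 1
  refine prod_congr rfl fun j _ => ?_
  rw [div_pow]
  field_simp

end Cfsg.Agent.H5.Ch
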