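import Cfsg.Agent.H5.Ch.P
import Cfsg.Agent.H2.NU0

/-! The tangent line form of the order bound. -/

set_option autoImplicit false

namespace Cfsg.Agent.H5.Ch

open MulAction Finset H2.NU

theorem lineL {X Ω : Type} [Group X] [Finite X] [MulAction X Ω] [Finite Ω] [FaithfulSMul X Ω]
    (h2 : 2 ≤ Nat.card Ω) (d : ℕ) (d0 : 0 < d)
    (hd : ∀ u v : Ω, u ≠ v → d ≤ {z : Ω | ∀ x : X, x • z = z → x • u ≠ v}.ncard) (l : List ℝ)
    (hl : ∀ y ∈ l, 1 ≤ y) : Real.log (Nat.card X) ≤
      (LN (Nat.card Ω) d l).1 + (LN (Nat.card Ω) d l).2 * ((Nat.card Ω : ℝ) - 1) := by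
  classical
  have := Fintype.ofFinite Ω
  have := Finite.one_lt_card_iff_nontrivial.1 h2
  have dn : d ≤ Nat.card Ω := by
    obtain ⟨u, v, e⟩ := exists_pair_ne Ω
    exact (hd u v e).trans (Set.ncard_le_card _)
  rw [Nat.card_eq_fintype_card (α := Ω)] at *
  have n0 : (0 : ℝ) < Fintype.card Ω := by exact_mod_cast Fintype.card_pos
  have d2 : (d : ℝ) ≤ Fintype.card Ω := by exact_mod_cast dn
  have key : 0 ≤ (LN (Fintype.card Ω) d l).2 ∧ ∀ H : Subgroup X, Real.log (Nat.card H) ≤
      (LN (Fintype.card Ω) d l).1 + (LN (Fintype.card Ω) d l).2 / Fintype.card Ω * np Ω H := by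
    induction l with
    | nil =>
      refine ⟨by simp only [LN]; positivity, fun H => (line_zero hd d0 dn H).trans_eq ?_⟩
      simp only [LN]
      field_simp
      ring
    | cons y l ih =>
      obtain ⟨h0, h⟩ := ih fun z hz => hl z (List.mem_cons_of_mem _ hz)
      have y0 : 0 < y := one_pos.trans_le (hl y List.mem_cons_self)
      have : 0 ≤ 1 - (d : ℝ) / Fintype.card Ω := sub_nonneg.2 ((div_le_one n0).2 d2)
      refine ⟨by simp only [LN]; positivity, fun H =>
        (line_step hd dn (div_nonneg h0 n0.le) y0 H fun w => h _).trans_eq ?_⟩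
      simp only [LN]
      field_simp
      ring
  have h1 : (np Ω (⊤ : Subgroup X) : ℝ) ≤ Fintype.card Ω * (Fintype.card Ω - 1) := by
    have : np Ω (⊤ : Subgroup X) ≤ Fintype.card Ω * (Fintype.card Ω - 1) := by
      refine (sum_le_card_nsmul _ _ (Fintype.card Ω - 1) fun u _ => ?_).trans_eq (by simp)
      rw [← card_univ, ← card_erase_of_mem (mem_univ u)]
      exact card_le_card fun v hv => mem_erase.2 ⟨(mem_filter.1 hv).2.1, mem_univ _⟩
    have n1 : 1 ≤ Fintype.card Ω := by omega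
    exact_mod_cast this
  have := key.2 ⊤
  rw [Subgroup.card_top] at this
  refine this.trans (add_le_add_right ((mul_le_mul_of_nonneg_left h1 (div_nonneg key.1 n0.le)).trans_eq ?_) _)
  field_simp

end Cfsg.Agent.H5.Ch
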